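import Mathlib

/-!
An abstract lemma on finite abelian groups (helper1): if for every prime `p` dividing the
exponent there is an element `x` of full `p`-power order whose subgroup of order `p` avoids a
power-closed set `Bad`, then some cyclic subgroup of order the exponent meets `Bad` only in `1`.
-/

set_option autoImplicit false

namespace Cfsg.Agent.Lib.Helper1.BG

/-- In a cyclic `p`-group generated by `x` of order `p ^ k`, an element `x ^ e` of order `p`
has `x ^ (p ^ (k - 1))` among its powers. -/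
theorem exists_pow_eq_socle {A : Type*} [Group A] {p k e : ℕ} (hp : p.Prime) (hk : 1 ≤ k)
    {x : A} (hx : orderOf x = p ^ k) (he : orderOf (x ^ e) = p) :
    ∃ a : ℕ, (x ^ e) ^ a = x ^ (p ^ (k - 1)) := by
  have hpk : p ^ k = p ^ (k - 1) * p := by
    rw [← pow_succ]; congr 1; omega
  have hpos : 0 < p ^ (k - 1) := Nat.pow_pos hp.pos
  have hfin : IsOfFinOrder x := by
    rw [← orderOf_pos_iff, hx]; exact Nat.pow_pos hp.pos
  have hgcd : Nat.gcd e (p ^ k) = p ^ (k - 1) := by
    have h1 : orderOf (x ^ e) = orderOf x / Nat.gcd (orderOf x) e := IsOfFinOrder.orderOf_pow x e hfin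
    rw [he, hx] at h1
    have h2 : Nat.gcd (p ^ k) e ∣ p ^ k := Nat.gcd_dvd_left _ _
    have hg0 : 0 < Nat.gcd (p ^ k) e := Nat.gcd_pos_of_pos_left _ (Nat.pow_pos hp.pos)
    have h3 : Nat.gcd (p ^ k) e * (p ^ k / Nat.gcd (p ^ k) e) = p ^ k := Nat.mul_div_cancel' h2
    rw [← h1] at h3
    have h4 : Nat.gcd (p ^ k) e * p = p ^ (k - 1) * p := by
      rw [h3, ← hpk]
    rw [Nat.gcd_comm]
    exact Nat.eq_of_mul_eq_mul_right hp.pos h4
  have hlt : Nat.gcd e (p ^ k) < p ^ k := by
    rw [hgcd, hpk]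
    calc p ^ (k - 1) = p ^ (k - 1) * 1 := (mul_one _).symm
      _ < p ^ (k - 1) * p := Nat.mul_lt_mul_of_pos_left hp.one_lt hpos
  obtain ⟨m, -, hm⟩ := Nat.exists_mul_mod_eq_gcd hlt
  refine ⟨m, ?_⟩
  rw [← pow_mul, ← pow_mod_orderOf, hx, hm, hgcd]

theorem exists_good_cyclic {A : Type*} [Group A] [Finite A] (hcomm : ∀ a b : A, a * b = b * a)
    (Bad : A → Prop) (hB : ∀ (u : A) (m : ℕ), Bad u → Bad (u ^ m))
    (hx : ∀ p : ℕ, p.Prime → p ∣ Monoid.exponent A →
      ∃ x : A, orderOf x = p ^ (Monoid.exponent A).factorization p ∧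
        ¬ Bad (x ^ (p ^ ((Monoid.exponent A).factorization p - 1)))) :
    ∃ z : A, orderOf z = Monoid.exponent A ∧ ∀ u ∈ Subgroup.zpowers z, u ≠ 1 → ¬ Bad u := by
  classical
  let _ : CommGroup A := { ‹Group A› with mul_comm := hcomm }
  set n := Monoid.exponent A with hn
  have hn0 : n ≠ 0 := Monoid.exponent_ne_zero_of_finite
  have hx' : ∀ p : ℕ, ∃ x : A, p ∈ n.primeFactors →
      orderOf x = p ^ n.factorization p ∧ ¬ Bad (x ^ (p ^ (n.factorization p - 1))) := by
    intro p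
    by_cases hp : p ∈ n.primeFactors
    · obtain ⟨x, h1, h2⟩ := hx p (Nat.prime_of_mem_primeFactors hp) (Nat.dvd_of_mem_primeFactors hp)
      exact ⟨x, fun _ => ⟨h1, h2⟩⟩
    · exact ⟨1, fun h => absurd h hp⟩
  choose x hxs using hx'
  set z : A := ∏ q ∈ n.primeFactors, x q with hz
  have hkpos : ∀ p ∈ n.primeFactors, 1 ≤ n.factorization p := by
    intro p hp
    exact (Nat.prime_of_mem_primeFactors hp).factorization_pos_of_dvd hn0
      (Nat.dvd_of_mem_primeFactors hp)
  have hzp : ∀ p ∈ n.primeFactors, z ^ (n / p) = (x p) ^ (n / p) := by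
    intro p hp
    have hpp := Nat.prime_of_mem_primeFactors hp
    have hpn := Nat.dvd_of_mem_primeFactors hp
    rw [hz, ← Finset.prod_pow]
    apply Finset.prod_eq_single_of_mem p hp
    intro q hq hqp
    have hqq := Nat.prime_of_mem_primeFactors hq
    have h1 : q ^ n.factorization q ∣ n := Nat.ordProj_dvd n q
    have h2 : q ^ n.factorization q ∣ n / p := by
      have h3 : q ^ n.factorization q ∣ p * (n / p) := by
        rwa [Nat.mul_div_cancel' hpn]
      have hcop : Nat.Coprime (q ^ n.factorization q) p :=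
        Nat.Coprime.pow_left _ ((Nat.coprime_primes hqq hpp).mpr hqp)
      exact hcop.dvd_of_dvd_mul_left h3
    rw [← (hxs q hq).1] at h2
    exact orderOf_dvd_iff_pow_eq_one.mp h2
  have hxne : ∀ p ∈ n.primeFactors, (x p) ^ (n / p) ≠ 1 := by
    intro p hp h
    have hpp := Nat.prime_of_mem_primeFactors hp
    have hpn := Nat.dvd_of_mem_primeFactors hp
    have h1 : orderOf (x p) ∣ n / p := orderOf_dvd_of_pow_eq_one h
    rw [(hxs p hp).1] at h1
    have h2 : p ^ (n.factorization p + 1) ∣ n := by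
      rw [pow_succ]
      have := Nat.mul_dvd_mul_right h1 p
      rwa [Nat.div_mul_cancel hpn] at this
    exact Nat.pow_succ_factorization_not_dvd hn0 hpp h2
  have hzn : orderOf z = n := by
    apply orderOf_eq_of_pow_and_pow_div_prime (Nat.pos_of_ne_zero hn0)
    · exact Monoid.pow_exponent_eq_one z
    · intro p hpp hpn
      have hp : p ∈ n.primeFactors := Nat.mem_primeFactors.mpr ⟨hpp, hpn, hn0⟩
      rw [hzp p hp]
      exact hxne p hp
  refine ⟨z, hzn, ?_⟩
  intro u hu hu1 hbad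
  obtain ⟨j, rfl⟩ : ∃ j : ℕ, z ^ j = u := by
    have := (mem_powers_iff_mem_zpowers (x := z) (y := u)).mpr hu
    exact (Submonoid.mem_powers_iff u z).mp this
  have hord : orderOf (z ^ j) ≠ 1 := fun h => hu1 (orderOf_eq_one_iff.mp h)
  obtain ⟨p, hpp, hpd⟩ := Nat.exists_prime_and_dvd hord
  have hpn : p ∣ n := by
    have h1 : orderOf (z ^ j) ∣ orderOf z := orderOf_dvd_of_mem_zpowers hu
    rw [hzn] at h1
    exact hpd.trans h1
  have hp : p ∈ n.primeFactors := Nat.mem_primeFactors.mpr ⟨hpp, hpn, hn0⟩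
  obtain ⟨c, hc⟩ := hpd
  have hcpos : 0 < c := by
    rcases Nat.eq_zero_or_pos c with h | h
    · rw [h, mul_zero] at hc
      exact absurd hc (orderOf_pos (z ^ j)).ne'
    · exact h
  -- `u' = u ^ c` has order `p`
  have hu'ord : orderOf ((z ^ j) ^ c) = p := by
    rw [orderOf_pow_of_dvd hcpos.ne' (hc ▸ dvd_mul_left c p), hc]
    exact Nat.mul_div_cancel _ hcpos
  have hu'bad : Bad ((z ^ j) ^ c) := hB _ c hbad
  -- `(n / p) ∣ j * c`
  have hdiv : n / p ∣ j * c := by
    have h1 : (z ^ (j * c)) ^ p = 1 := by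
      rw [pow_mul, ← hu'ord]; exact pow_orderOf_eq_one _
    rw [← pow_mul] at h1
    have h2 : n ∣ j * c * p := by
      rw [← hzn]; exact orderOf_dvd_of_pow_eq_one h1
    rw [← Nat.div_mul_cancel hpn] at h2
    exact Nat.dvd_of_mul_dvd_mul_right hpp.pos h2
  obtain ⟨m, hm⟩ := hdiv
  have hu'eq : (z ^ j) ^ c = (x p) ^ (n / p * m) := by
    rw [← pow_mul, hm, pow_mul, hzp p hp, ← pow_mul]
  rw [hu'eq] at hu'ord hu'bad
  obtain ⟨a, ha⟩ := exists_pow_eq_socle hpp (hkpos p hp) (hxs p hp).1 hu'ord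
  exact (hxs p hp).2 (ha ▸ hB _ a hu'bad)

end Cfsg.Agent.Lib.Helper1.BG
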