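import Mathlib
import Cfsg.Statements.S1350
import Cfsg.Statements.S1405
import Cfsg.Statements.S1417
import Cfsg.Statements.S1421
import Cfsg.Statements.S1430
import Cfsg.Agent.Lib.Helper1.BG.GoodCyclic
import Cfsg.Agent.Lib.Helper35.BG.S1359Core
import Cfsg.Agent.Lib.Helper35.BG.S1363Core
import Cfsg.Agent.Lib.Helper67.BG.S1358Core
import Cfsg.Agent.Lib.Helper20.BG.S1408Core

/-!
Statement S1360 (`U` has a subgroup `U₀` of the same exponent acting freely on `M_σ`), with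
S1350, S1405, S1417, S1421 and S1430 as hypotheses (helper1).
-/

set_option autoImplicit false

namespace Cfsg.Agent.Lib.Helper1.BG

open Cfsg

variable {G : Type*} [Group G] [Finite G]

/-- The `τ₂` case: an abelian Hall subgroup `U` of `M` containing a Sylow `p`-subgroup of `M`
for `p ∈ τ₂(M)` has an element of maximal `p`-power order whose subgroup of order `p` acts
freely on `M_σ`. -/
theorem tau2_good_element (hG : IsMinSimpleOddOrder G)
    (h1417 : type_of% (@Cfsg.CfsgFrozen.S1417 G _ _ hG))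
    (M : Subgroup G) (hM : IsCoatom M) (U : Subgroup G) (hUM : U ≤ M)
    (hUc : ∀ a ∈ U, ∀ b ∈ U, a * b = b * a)
    (p : ℕ) [hpF : Fact p.Prime] (hpτ : p ∈ tau2 M) (hpU : ¬ p ∣ U.relIndex M)
    (k : ℕ) (hk : 1 ≤ k)
    (hUk : ∀ u ∈ U, (∃ j : ℕ, u ^ (p ^ j) = 1) → u ^ (p ^ k) = 1)
    (x₀ : G) (hx₀U : x₀ ∈ U) (hx₀ : orderOf x₀ = p ^ k) :
    ∃ x ∈ U, orderOf x = p ^ k ∧
      ∀ y ∈ sigmaCore M, y ≠ 1 → x ^ (p ^ (k - 1)) * y ≠ y * x ^ (p ^ (k - 1)) := by
  have hp : p.Prime := hpF.out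
  obtain ⟨Q⟩ : Nonempty (Sylow p U) := inferInstance
  have hcardM : Nat.card U * U.relIndex M = Nat.card M :=
    Cfsg.Agent.Lib.Helper35.BG.card_mul_relIndex' hUM
  have hfac : (Nat.card M).factorization p = (Nat.card U).factorization p := by
    rw [← hcardM, Nat.factorization_mul Nat.card_pos.ne' (fun h => hpU (by rw [h]; exact dvd_zero p))]
    simp [Nat.factorization_eq_zero_of_not_dvd hpU]
  have hQcard : Nat.card ((Q : Subgroup U).map (Subgroup.inclusion hUM)) =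
      p ^ (Nat.card M).factorization p := by
    rw [Subgroup.card_map_of_injective (Subgroup.inclusion_injective hUM), hfac]
    exact Q.card_eq_multiplicity
  set P : Sylow p M := Sylow.ofCard _ hQcard with hPdef
  have hPcoe : (P : Subgroup M) = (Q : Subgroup U).map (Subgroup.inclusion hUM) :=
    Sylow.coe_ofCard _ _
  set P' : Subgroup G := (P : Subgroup M).map M.subtype with hP'def
  have hP'mem : ∀ x : G, x ∈ P' ↔ ∃ q : U, q ∈ (Q : Subgroup U) ∧ (q : G) = x := by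
    intro x
    rw [hP'def, hPcoe]
    constructor
    · rintro ⟨_, ⟨q, hq, rfl⟩, rfl⟩
      exact ⟨q, hq, rfl⟩
    · rintro ⟨q, hq, rfl⟩
      exact ⟨_, ⟨q, hq, rfl⟩, rfl⟩
  have hP'U : P' ≤ U := by
    intro x hx
    obtain ⟨q, -, rfl⟩ := (hP'mem x).mp hx
    exact q.2
  have hP'M : P' ≤ M := hP'U.trans hUM
  have hP'p : IsPGroup p P' := P.isPGroup'.map _
  have hP'pel : ∀ u ∈ P', ∃ j : ℕ, u ^ (p ^ j) = 1 := by
    intro u hu
    obtain ⟨j, hj⟩ := hP'p ⟨u, hu⟩
    exact ⟨j, by simpa using congrArg Subtype.val hj⟩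
  -- every `p`-element of `U` lies in `P'`
  have hQn : (Q : Subgroup U).Normal := by
    refine ⟨fun n hn g => ?_⟩
    have h1 : g * n * g⁻¹ = n := by
      have h2 : g * n = n * g := Subtype.ext (hUc g g.2 n n.2)
      rw [h2, mul_inv_cancel_right]
    rwa [h1]
  have hP'all : ∀ u ∈ U, (∃ j : ℕ, u ^ (p ^ j) = 1) → u ∈ P' := by
    intro u hu ⟨j, hj⟩
    have := Sylow.unique_of_normal Q hQn
    have h1 : orderOf (⟨u, hu⟩ : ↥U) ∣ p ^ j :=
      orderOf_dvd_of_pow_eq_one (Subtype.ext (by simpa using hj))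
    obtain ⟨i, -, hi⟩ := (Nat.dvd_prime_pow hp).mp h1
    have hpg : IsPGroup p (Subgroup.zpowers (⟨u, hu⟩ : ↥U)) := by
      apply IsPGroup.of_card (n := i)
      rw [Nat.card_zpowers, hi]
    obtain ⟨Q₂, hQ₂⟩ := hpg.exists_le_sylow
    have hQQ : Q₂ = Q := Subsingleton.elim _ _
    rw [hP'mem]
    exact ⟨⟨u, hu⟩, hQQ ▸ hQ₂ (Subgroup.mem_zpowers _), rfl⟩
  -- an elementary abelian subgroup of order `p ^ 2` in `P'`
  have hr2' : PRankLE p 2 P' := by
    rw [Cfsg.Agent.Lib.Helper24.pRankLE_subgroup_iff]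
    intro A hA hc he
    exact (Cfsg.Agent.Lib.Helper24.pRankLE_subgroup_iff p 2 M).mp hpτ.2.2.1 A (hA.trans hP'M) hc he
  have hr1' : ¬ PRankLE p 1 P' := fun h =>
    hpτ.2.2.2 (Cfsg.Agent.Lib.Helper35.BG.pRankLE_of_isSylowIn
      (Cfsg.Agent.Lib.Helper46.isSylowIn_of_sylow P) h)
  obtain ⟨A, hAP', hAea, hAcard⟩ := Cfsg.Agent.Lib.Helper20.BG.exists_ea_sq P' p hr2' hr1'
  obtain ⟨-, hb, -, -, he, A₁, hA₁A, hA₁card, hA₁free⟩ :=
    h1417 M hM p hpτ A ⟨hAP'.trans hP'M, hAea, hAcard⟩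
  obtain ⟨-, hb'⟩ := hb P
  obtain ⟨hΩ, hNP⟩ := hb' hAP'
  have hx₀P : x₀ ∈ P' := hP'all x₀ hx₀U ⟨k, by rw [← hx₀]; exact pow_orderOf_eq_one x₀⟩
  have hpk : p ^ k = p ^ (k - 1) * p := by
    rw [← pow_succ]; congr 1; omega
  have ht₀ord : orderOf (x₀ ^ (p ^ (k - 1))) = p := by
    rw [orderOf_pow_of_dvd (pow_ne_zero _ hp.ne_zero) (hx₀ ▸ pow_dvd_pow p (Nat.sub_le k 1)), hx₀,
      hpk]
    exact Nat.mul_div_cancel_left _ (Nat.pow_pos hp.pos)
  have ht₀1 : x₀ ^ (p ^ (k - 1)) ≠ 1 := by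
    intro h
    rw [h, orderOf_one] at ht₀ord
    exact hp.one_lt.ne ht₀ord
  by_cases hgood : ∀ y ∈ sigmaCore M, y ≠ 1 → x₀ ^ (p ^ (k - 1)) * y ≠ y * x₀ ^ (p ^ (k - 1))
  · exact ⟨x₀, hx₀U, hx₀, hgood⟩
  push Not at hgood
  obtain ⟨y, hy, hy1, hyt⟩ := hgood
  by_cases hex : ∃ u ∈ P', u ^ (p ^ (k - 1)) ∈ A₁ ∧ u ^ (p ^ (k - 1)) ≠ 1
  · obtain ⟨u, huP, huA₁, hu1⟩ := hex
    have huk : u ^ (p ^ k) = 1 := hUk u (hP'U huP) (hP'pel u huP)
    refine ⟨u, hP'U huP, ?_, ?_⟩
    · have h := orderOf_eq_prime_pow (p := p) (n := k - 1) hu1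
        (by rw [Nat.sub_add_cancel hk]; exact huk)
      rwa [Nat.sub_add_cancel hk] at h
    · intro y' hy' hy'1 hcomm
      have hmem : y' ∈ sigmaCore M ⊓ Subgroup.centralizer (A₁ : Set G) := by
        refine Subgroup.mem_inf.mpr ⟨hy', ?_⟩
        rw [Subgroup.mem_centralizer_iff]
        intro a ha
        have hmem : (⟨a, ha⟩ : A₁) ∈ Subgroup.zpowers (⟨u ^ (p ^ (k - 1)), huA₁⟩ : A₁) :=
          mem_zpowers_of_prime_card hA₁card (fun h => hu1 (congrArg Subtype.val h))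
        obtain ⟨i, hi⟩ := Subgroup.mem_zpowers_iff.mp hmem
        have hi' : (u ^ (p ^ (k - 1))) ^ i = a := by
          have := congrArg Subtype.val hi
          simpa using this
        rw [← hi']
        exact (Commute.zpow_left (show Commute (u ^ (p ^ (k - 1))) y' from hcomm) i).eq
      rw [hA₁free] at hmem
      exact hy'1 (Subgroup.mem_bot.mp hmem)
  · push Not at hex
    exfalso
    let W : Subgroup G :=
      { carrier := {w | ∃ u ∈ P', u ^ (p ^ (k - 1)) = w}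
        mul_mem' := by
          rintro _ _ ⟨u, hu, rfl⟩ ⟨v, hv, rfl⟩
          exact ⟨u * v, P'.mul_mem hu hv,
            Commute.mul_pow (show Commute u v from hUc u (hP'U hu) v (hP'U hv)) _⟩
        one_mem' := ⟨1, P'.one_mem, one_pow _⟩
        inv_mem' := by
          rintro _ ⟨u, hu, rfl⟩
          exact ⟨u⁻¹, P'.inv_mem hu, inv_pow u _⟩ }
    have hWmem : ∀ w : G, w ∈ W ↔ ∃ u ∈ P', u ^ (p ^ (k - 1)) = w := fun w => Iff.rfl
    have hWA : W ≤ A := by
      rintro _ ⟨u, hu, rfl⟩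
      have h1 : (u ^ (p ^ (k - 1))) ^ p = 1 := by
        rw [← pow_mul, ← hpk]
        exact hUk u (hP'U hu) (hP'pel u hu)
      exact (hΩ _ (P'.pow_mem hu _)).mp h1
    have ht₀W : x₀ ^ (p ^ (k - 1)) ∈ W := ⟨x₀, hx₀P, rfl⟩
    have hWA₁ : ∀ w ∈ W, w ∈ A₁ → w = 1 := by
      rintro _ ⟨u, hu, rfl⟩ h
      exact hex u hu h
    have hW1 : W ≠ ⊥ := by
      intro h
      rw [h] at ht₀W
      exact ht₀1 (Subgroup.mem_bot.mp ht₀W)
    have hWcard : Nat.card W = p := by
      have h1 : Nat.card W ∣ p ^ 2 := hAcard ▸ Subgroup.card_dvd_of_le hWA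
      obtain ⟨i, hi2, hi⟩ := (Nat.dvd_prime_pow hp).mp h1
      interval_cases i
      · exfalso
        rw [pow_zero] at hi
        exact hW1 (Subgroup.card_eq_one.mp hi)
      · rw [hi, pow_one]
      · exfalso
        have hWA' : W = A := Subgroup.eq_of_le_of_card_ge hWA (by rw [hi, hAcard])
        have hA₁bot : A₁ = ⊥ := by
          rw [eq_bot_iff]
          intro a ha
          rw [Subgroup.mem_bot]
          exact hWA₁ a (hWA' ▸ hA₁A ha) ha
        rw [hA₁bot] at hA₁card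
        rw [Subgroup.card_bot] at hA₁card
        exact hp.one_lt.ne hA₁card
    have hWy : ∀ w ∈ W, y * w = w * y := by
      intro w hw
      have hmem : (⟨w, hw⟩ : W) ∈ Subgroup.zpowers (⟨x₀ ^ (p ^ (k - 1)), ht₀W⟩ : W) :=
        mem_zpowers_of_prime_card hWcard (fun h => ht₀1 (congrArg Subtype.val h))
      obtain ⟨i, hi⟩ := Subgroup.mem_zpowers_iff.mp hmem
      have hi' : (x₀ ^ (p ^ (k - 1))) ^ i = w := by
        have := congrArg Subtype.val hi
        simpa using this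
      rw [← hi']
      exact (Commute.zpow_left (show Commute (x₀ ^ (p ^ (k - 1))) y from hyt) i).eq.symm
    have hWtop : W ≠ ⊤ := by
      intro h
      have h1 : W ≤ M := hWA.trans (hAP'.trans hP'M)
      rw [h] at h1
      exact hM.1 (top_le_iff.mp h1)
    obtain ⟨L, hL, hNL⟩ := Cfsg.Agent.Lib.Helper35.BG.exists_coatom_ge
      (Cfsg.Agent.Lib.Helper35.BG.normalizer_ne_top hG hW1 hWtop)
    have hNPW : Subgroup.normalizer (P' : Set G) ≤ Subgroup.normalizer (W : Set G) := by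
      intro g hg
      rw [Subgroup.mem_normalizer_iff] at hg ⊢
      intro h
      constructor
      · rintro ⟨u, hu, rfl⟩
        exact ⟨g * u * g⁻¹, (hg u).mp hu, conj_pow⟩
      · rintro ⟨u, hu, hu'⟩
        refine ⟨g⁻¹ * u * g, ?_, ?_⟩
        · rw [hg]
          have : g * (g⁻¹ * u * g) * g⁻¹ = u := by group
          rwa [this]
        · have h2 : (g⁻¹ * u * g) ^ (p ^ (k - 1)) = g⁻¹ * u ^ (p ^ (k - 1)) * g := by
            have := conj_pow (a := g⁻¹) (b := u) (i := p ^ (k - 1))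
            rwa [inv_inv] at this
          rw [h2, hu']
          group
    have hAL : A ≤ L := fun a ha => hNL (hNPW (Subgroup.le_normalizer (hAP' ha)))
    have hyN : y ∈ Subgroup.normalizer (W : Set G) := by
      rw [Subgroup.mem_normalizer_iff]
      intro h
      constructor
      · intro hh
        have : y * h * y⁻¹ = h := by rw [hWy h hh, mul_inv_cancel_right]
        rwa [this]
      · intro hh
        have h1 := hWy _ hh
        have h2 : y * h * y⁻¹ = h := by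
          have h3 : y * (y * h * y⁻¹) = y * h := by rw [h1]; group
          exact mul_left_cancel h3
        rwa [h2] at hh
    have hLM : L = M := by
      by_contra hne
      have h1 := he L hL hne hAL
      have h2 : y ∈ sigmaCore M ⊓ L := Subgroup.mem_inf.mpr ⟨hy, hNL hyN⟩
      rw [h1] at h2
      exact hy1 (Subgroup.mem_bot.mp h2)
    exact hNP (hNPW.trans (hNL.trans hLM.le))

/-- Statement S1360 with S1350, S1405, S1417, S1421, S1430 as hypotheses. -/
theorem s1360_core (hG : IsMinSimpleOddOrder G)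
    (h1350 : type_of% (@Cfsg.CfsgFrozen.S1350 G _ _ hG))
    (h1405 : type_of% (@Cfsg.CfsgFrozen.S1405 G _ _ hG))
    (h1417 : type_of% (@Cfsg.CfsgFrozen.S1417 G _ _ hG))
    (h1421 : type_of% (@Cfsg.CfsgFrozen.S1421 G _ _ hG))
    (h1430 : type_of% (@Cfsg.CfsgFrozen.S1430 G _ _ hG))
    (M : Subgroup G) (hM : IsCoatom M) (K U : Subgroup G)
    (hKU : Cfsg.IsSigmaDecomposition M K U) :
    ∃ U₀ : Subgroup G, U₀ ≤ U ∧ Monoid.exponent U₀ = Monoid.exponent U ∧
      ∀ u ∈ U₀, u ∈ Cfsg.sigmaHat M → u = 1 := by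
  by_cases hK1 : K = ⊥
  · have hκ : ∀ p, p ∉ kappa M :=
      Cfsg.Agent.Lib.Helper35.BG.kappa_empty_of_hall_bot (hK1 ▸ hKU.hall)
    have hE : IsComplIn U (sigmaCore M) M := by
      have := hKU.compl
      rwa [hK1, bot_sup_eq] at this
    obtain ⟨-, E₀, hE₀U, hE₀exp, hE₀free⟩ := h1421 M hM U hE
      (fun e heU he1 hτ =>
        Cfsg.Agent.Lib.Helper35.BG.regular_of_kappa_empty hG hκ (hE.1 heU) he1 hτ)
    refine ⟨E₀, hE₀U, hE₀exp, ?_⟩
    rintro u hu ⟨-, y, hy, hy1, huy⟩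
    by_contra hu1
    have h := hE₀free u hu hu1
    have hmem : y ∈ sigmaCore M ⊓ Subgroup.centralizer ({u} : Set G) := by
      refine Subgroup.mem_inf.mpr ⟨hy, ?_⟩
      rw [Subgroup.mem_centralizer_iff]
      rintro _ rfl
      exact huy
    rw [h] at hmem
    exact hy1 (Subgroup.mem_bot.mp hmem)
  · have hUc := Cfsg.Agent.Lib.Helper35.BG.isMulCommutative_U_of_ne_bot hG h1350 h1430 M hM K U
      hKU hK1
    have hUc' : ∀ a ∈ U, ∀ b ∈ U, a * b = b * a :=
      Cfsg.Agent.Lib.Helper35.BG.isMulCommutative_subgroup_iff.mp hUc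
    have hUH := Cfsg.Agent.Lib.Helper35.BG.isPiHallOf_of_sigmaDecomposition (h1350 M hM).1 hKU
    have hB : ∀ (u : ↥U) (m : ℕ), (∃ y ∈ sigmaCore M, y ≠ 1 ∧ (u : G) * y = y * (u : G)) →
        ∃ y ∈ sigmaCore M, y ≠ 1 ∧ ((u ^ m : ↥U) : G) * y = y * ((u ^ m : ↥U) : G) := by
      rintro u m ⟨y, hy, hy1, huy⟩
      refine ⟨y, hy, hy1, ?_⟩
      rw [Subgroup.coe_pow]
      exact (Commute.pow_left (show Commute (u : G) y from huy) m).eq
    have hx : ∀ p : ℕ, p.Prime → p ∣ Monoid.exponent ↥U →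
        ∃ x : ↥U, orderOf x = p ^ (Monoid.exponent ↥U).factorization p ∧
          ¬ ∃ y ∈ sigmaCore M, y ≠ 1 ∧
            ((x ^ (p ^ ((Monoid.exponent ↥U).factorization p - 1)) : ↥U) : G) * y =
              y * ((x ^ (p ^ ((Monoid.exponent ↥U).factorization p - 1)) : ↥U) : G) := by
      intro p hp hpexp
      have : Fact p.Prime := ⟨hp⟩
      have hk1 : 1 ≤ (Monoid.exponent ↥U).factorization p :=
        hp.factorization_pos_of_dvd Monoid.exponent_ne_zero_of_finite hpexp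
      obtain ⟨x₀, hx₀⟩ := hp.exists_orderOf_eq_pow_factorization_exponent ↥U
      have hpU : p ∣ Nat.card U := hpexp.trans Group.exponent_dvd_nat_card
      have hpπ := hUH.2.1 p hp hpU
      have hr2 : PRankLE p 2 M := Cfsg.Agent.Lib.Helper67.BG.pRankLE_two_of_not_mem_sigma M
        (h1405 M hM).1 (h1405 M hM).2.2.1 hp hpπ.2.2
      have hpk : p ^ (Monoid.exponent ↥U).factorization p =
          p ^ ((Monoid.exponent ↥U).factorization p - 1) * p := by
        rw [← pow_succ]; congr 1; omega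
      by_cases hr1 : PRankLE p 1 M
      · refine ⟨x₀, hx₀, ?_⟩
        rintro ⟨y, hy, hy1, hcomm⟩
        apply hpπ.2.1
        refine Cfsg.Agent.Lib.Helper35.BG.mem_kappa_of_singular hG hpπ.2.2 hr1
          (hUH.1 (x₀ ^ p ^ ((Monoid.exponent ↥U).factorization p - 1)).2) ?_ hy hy1 hcomm
        rw [Subgroup.orderOf_coe, orderOf_pow_of_dvd (pow_ne_zero _ hp.ne_zero)
          (hx₀ ▸ pow_dvd_pow p (Nat.sub_le _ 1)), hx₀, hpk]
        exact Nat.mul_div_cancel_left _ (Nat.pow_pos hp.pos)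
      · have hpτ : p ∈ tau2 M := ⟨hp, hpπ.2.2, hr2, hr1⟩
        have hnd : ¬ p ∣ U.relIndex M := hUH.2.2 p hp hpπ
        have hUk : ∀ u ∈ U, (∃ j : ℕ, u ^ (p ^ j) = 1) →
            u ^ (p ^ (Monoid.exponent ↥U).factorization p) = 1 := by
          rintro u hu ⟨j, hj⟩
          have h1 : orderOf (⟨u, hu⟩ : ↥U) ∣ p ^ j :=
            orderOf_dvd_of_pow_eq_one (Subtype.ext (by simpa using hj))
          obtain ⟨i, -, hi⟩ := (Nat.dvd_prime_pow hp).mp h1
          have h2 : p ^ i ∣ Monoid.exponent ↥U := hi ▸ Monoid.order_dvd_exponent _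
          have h3 : i ≤ (Monoid.exponent ↥U).factorization p :=
            (hp.pow_dvd_iff_le_factorization Monoid.exponent_ne_zero_of_finite).mp h2
          have h4 : (⟨u, hu⟩ : ↥U) ^ (p ^ (Monoid.exponent ↥U).factorization p) = 1 :=
            orderOf_dvd_iff_pow_eq_one.mp (hi ▸ pow_dvd_pow p h3)
          simpa using congrArg Subtype.val h4
        obtain ⟨x, hxU, hxord, hxfree⟩ := tau2_good_element hG h1417 M hM U hUH.1 hUc' p hpτ hnd
          ((Monoid.exponent ↥U).factorization p) hk1 hUk (x₀ : G) x₀.2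
          (by rw [Subgroup.orderOf_coe]; exact hx₀)
        refine ⟨⟨x, hxU⟩, ?_, ?_⟩
        · rw [← hxord]; exact Subgroup.orderOf_mk x hxU
        · rintro ⟨y, hy, hy1, hcomm⟩
          exact hxfree y hy hy1 (by simpa using hcomm)
    obtain ⟨z, hz, hzfree⟩ := exists_good_cyclic (A := ↥U)
      (fun a b => Subtype.ext (hUc' a a.2 b b.2))
      (fun u : ↥U => ∃ y ∈ sigmaCore M, y ≠ 1 ∧ (u : G) * y = y * (u : G)) hB hx
    refine ⟨(Subgroup.zpowers z).map U.subtype, Subgroup.map_subtype_le _, ?_, ?_⟩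
    · rw [← hz]
      have e1 : Monoid.exponent ↥((Subgroup.zpowers z).map U.subtype) =
          Monoid.exponent ↥(Subgroup.zpowers z) :=
        (Monoid.exponent_eq_of_mulEquiv
          ((Subgroup.zpowers z).equivMapOfInjective U.subtype U.subtype_injective)).symm
      rw [e1, IsCyclic.exponent_eq_card, Nat.card_zpowers]
    · rintro _ ⟨u, hu, rfl⟩ ⟨-, y, hy, hy1, huy⟩
      by_contra hu1
      exact hzfree u hu (fun h => hu1 (by rw [h]; rfl)) ⟨y, hy, hy1, huy⟩

end Cfsg.Agent.Lib.Helper1.BG
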