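import Mathlib
import Cfsg.Prelude.Def_OddOrderLocal
import Cfsg.Statements.S1412
import Cfsg.Agent.Lib.Helper70.BG.S1421Defs
import Cfsg.Agent.Lib.Helper79.BG.S1419Pow
import Cfsg.Agent.Lib.Helper70.BG.S1422Aux

/-!
Package `LemN3` of the S1421 team project (helper70's statement, helper1's proof): in the case of
nonabelian Sylow `p`-subgroups, no `p`-element `e` of `E` with `e ^ p ≠ 1` has the singular
subgroup `X` inside `⟨e⟩`.
-/

set_option autoImplicit false

namespace Cfsg.Agent.Lib.Helper1.BG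

open Cfsg.Agent.Lib.Helper46 Cfsg.Agent.Lib.Helper35.BG Cfsg.Agent.Lib.Helper20.BG
  Cfsg.Agent.Lib.Helper79.BG

universe u

/-- In a cyclic group `⟨e⟩` with `e ^ p ^ (k + 1) = 1`, an element killed by `p` is a power of
`e ^ p ^ k`, provided `e ^ p ^ k ≠ 1`. -/
theorem mem_zpowers_pow_of_pow_eq_one {G : Type u} [Group G] {p : ℕ} (hp : p.Prime) {e x : G}
    {k : ℕ} (he : e ^ p ^ (k + 1) = 1) (he' : e ^ p ^ k ≠ 1) (hx : x ∈ Subgroup.zpowers e)
    (hxp : x ^ p = 1) : x ∈ Subgroup.zpowers (e ^ p ^ k) := by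
  have : Fact p.Prime := ⟨hp⟩
  have hord : orderOf e = p ^ (k + 1) := orderOf_eq_prime_pow he' he
  obtain ⟨j, rfl⟩ := Subgroup.mem_zpowers_iff.mp hx
  have h1 : e ^ (j * (p : ℤ)) = 1 := by
    rw [zpow_mul, zpow_natCast]
    exact hxp
  have h2 : ((orderOf e : ℕ) : ℤ) ∣ j * (p : ℤ) := orderOf_dvd_iff_zpow_eq_one.mpr h1
  rw [hord] at h2
  have h3 : ((p ^ k : ℕ) : ℤ) ∣ j := by
    have h4 : ((p ^ (k + 1) : ℕ) : ℤ) = ((p ^ k : ℕ) : ℤ) * (p : ℤ) := by
      push_cast
      ring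
    rw [h4] at h2
    exact (mul_dvd_mul_iff_right (by exact_mod_cast hp.ne_zero)).mp h2
  obtain ⟨c, rfl⟩ := h3
  rw [Subgroup.mem_zpowers_iff]
  refine ⟨c, ?_⟩
  rw [zpow_mul, zpow_natCast]

theorem lemN3 : Cfsg.Agent.Lib.Helper70.BG21.LemN3.{u} := by
  intro G _ _ hG h1412 M E p hpF hS A hA hEM hnormE hmax hab X hX hXc hXM e heE hep hep1 hXe
  classical
  have hpp : p.Prime := hpF.out
  obtain ⟨hAE, hAea, hAcard⟩ := hA
  have hAM : A ≤ M := hAE.trans hEM
  have hAp : IsPGroup p A := isPGroup_of_ea hAea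
  have hp2 : p ≠ 2 := by
    rintro rfl
    have h1 : Odd (Nat.card A) := odd_card_subgroup hG A
    rw [hAcard] at h1
    revert h1
    decide
  -- the order of `e`
  obtain ⟨k₀, hk₀s, hk₀min⟩ : ∃ k₀, e ^ p ^ k₀ = 1 ∧ ∀ m < k₀, e ^ p ^ m ≠ 1 :=
    ⟨Nat.find hep, Nat.find_spec hep, fun m hm => Nat.find_min hep hm⟩
  have hk₀2 : 2 ≤ k₀ := by
    by_contra hlt
    have h01 : k₀ = 0 ∨ k₀ = 1 := by omega
    rcases h01 with h0 | h1
    · rw [h0, pow_zero, pow_one] at hk₀s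
      exact hep1 (by rw [hk₀s, one_pow])
    · rw [h1, pow_one] at hk₀s
      exact hep1 hk₀s
  obtain ⟨y, hy⟩ : ∃ y : G, y = e ^ p ^ (k₀ - 2) := ⟨_, rfl⟩
  have hyp : y ^ p = e ^ p ^ (k₀ - 1) := by
    rw [hy, ← pow_mul, ← pow_succ]
    congr 2
    omega
  have hyp1 : y ^ p ≠ 1 := by
    rw [hyp]
    exact hk₀min (k₀ - 1) (by omega)
  have hek : e ^ p ^ (k₀ - 1 + 1) = 1 := by
    have h0 : k₀ - 1 + 1 = k₀ := by omega
    rw [h0]
    exact hk₀s
  -- `X ≤ ⟨y ^ p⟩`
  have hXy : ∀ x ∈ X, x ∈ Subgroup.zpowers (y ^ p) := by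
    intro x hx
    rw [hyp]
    refine mem_zpowers_pow_of_pow_eq_one hpp hek (hk₀min (k₀ - 1) (by omega)) (hXe hx) ?_
    exact hAea.2 x (hX hx)
  -- `y ^ p ∈ X`
  have hypX : y ^ p ∈ X := by
    have hX1 : X ≠ ⊥ := by
      intro h
      rw [h, Subgroup.card_bot] at hXc
      exact hpp.one_lt.ne hXc
    obtain ⟨⟨x, hxX⟩, hx1'⟩ := (Subgroup.ne_bot_iff_exists_ne_one).mp hX1
    have hx1 : x ≠ 1 := fun h => hx1' (Subtype.ext h)
    have hxz := hXy x hxX
    -- `⟨y^p⟩` has order `p`, and `x ≠ 1` generates it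
    have hord : orderOf (y ^ p) = p := by
      refine orderOf_eq_prime ?_ hyp1
      rw [hyp, ← pow_mul, ← pow_succ]
      exact hek
    have hcard : Nat.card (Subgroup.zpowers (y ^ p)) = p := by
      rw [Nat.card_zpowers, hord]
    have h1 : Subgroup.zpowers x = Subgroup.zpowers (y ^ p) :=
      Cfsg.Agent.Lib.Helper70.BG.zpowers_eq_of_card_prime hcard hxz hx1
    have h2 : y ^ p ∈ Subgroup.zpowers x := h1 ▸ Subgroup.mem_zpowers (y ^ p)
    exact ((Subgroup.zpowers_le).mpr hxX) h2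
  have hypA : y ^ p ∈ A := hX hypX
  have hyE : y ∈ E := hy ▸ E.pow_mem heE _
  have hyM : y ∈ M := hEM hyE
  -- the abelian `p`-group `P' = ⟨y⟩ A`
  have hyZ : IsPGroup p (Subgroup.zpowers y) := by
    apply Cfsg.Agent.Lib.Helper79.BG.isPGroup_zpowers
    obtain ⟨k, hk⟩ := hep
    refine ⟨k, ?_⟩
    rw [hy, ← pow_mul, mul_comm, pow_mul, hk, one_pow]
  have hZA : Subgroup.zpowers y ≤ Subgroup.normalizer (A : Set G) :=
    (Subgroup.zpowers_le).mpr (hnormE hyE)
  have hP'p : IsPGroup p (Subgroup.zpowers y ⊔ A : Subgroup G) :=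
    IsPGroup.to_sup_of_normal_right' hyZ hAp hZA
  have hP'M : Subgroup.zpowers y ⊔ A ≤ M := sup_le ((Subgroup.zpowers_le).mpr hyM) hAM
  have hP'c := hab _ hP'M hP'p
  have hP'comm : ∀ a ∈ (Subgroup.zpowers y ⊔ A : Subgroup G),
      ∀ b ∈ (Subgroup.zpowers y ⊔ A : Subgroup G), a * b = b * a := by
    intro a ha b hb
    have h1 := (isMulCommutative_iff.mp hP'c) ⟨a, ha⟩ ⟨b, hb⟩
    exact congrArg Subtype.val h1
  obtain ⟨S, hP'S⟩ := hP'p.exists_le_sylow
  have hAS : A ≤ (S : Subgroup G) := le_sup_right.trans hP'S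
  have hyS : y ∈ (S : Subgroup G) := hP'S (Subgroup.mem_sup_left (Subgroup.mem_zpowers y))
  -- `y ^ p` is central in `S`
  have hcent : ∀ s ∈ (S : Subgroup G), y ^ p * s = s * y ^ p := by
    intro s hs
    by_cases hr : Cfsg.PRankLE p 2 ↥(S : Subgroup G)
    · rcases h1412 p S hr with hc | ⟨P₁, P₂, hsup, hcomm, -, -, hexp, hcyc, -⟩
      · exact absurd hc (hS S)
      · exact pow_central_rank_two (S : Subgroup G) P₁ P₂ hsup hcomm hexp hcyc y hyS s hs
    · have hE' : Cfsg.IsElementaryAbelian p (A.subgroupOf (S : Subgroup G)) := by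
        refine ⟨?_, ?_⟩
        · rw [isMulCommutative_iff]
          rintro ⟨⟨a, haS⟩, ha⟩ ⟨⟨b, hbS⟩, hb⟩
          apply Subtype.ext
          apply Subtype.ext
          exact ea_comm hAea a (Subgroup.mem_subgroupOf.mp ha) b (Subgroup.mem_subgroupOf.mp hb)
        · rintro ⟨a, haS⟩ ha
          apply Subtype.ext
          exact hAea.2 a (Subgroup.mem_subgroupOf.mp ha)
      have hE2 : Nat.card (A.subgroupOf (S : Subgroup G)) = p ^ 2 := by
        rw [Nat.card_congr (Subgroup.subgroupOfEquivOfLe hAS).toEquiv, hAcard]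
      have hEmax : ∀ B : Subgroup ↥(S : Subgroup G), Cfsg.IsElementaryAbelian p B →
          A.subgroupOf (S : Subgroup G) ≤ B → B = A.subgroupOf (S : Subgroup G) := by
        intro B hB hAB
        have hBea : Cfsg.IsElementaryAbelian p (B.map (S : Subgroup G).subtype) := by
          refine ⟨?_, ?_⟩
          · rw [isMulCommutative_iff]
            rintro ⟨_, ⟨a, ha, rfl⟩⟩ ⟨_, ⟨b, hb, rfl⟩⟩
            apply Subtype.ext
            have h1 := (isMulCommutative_iff.mp hB.1) ⟨a, ha⟩ ⟨b, hb⟩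
            exact congrArg (fun z : ↥B => ((z : ↥(S : Subgroup G)) : G)) h1
          · rintro _ ⟨b, hb, rfl⟩
            rw [← map_pow, hB.2 b hb, map_one]
        have hAB' : A ≤ B.map (S : Subgroup G).subtype := by
          intro a ha
          exact ⟨⟨a, hAS ha⟩, hAB (Subgroup.mem_subgroupOf.mpr ha), rfl⟩
        have h1 := hmax _ hBea hAB'
        ext z
        rw [Subgroup.mem_subgroupOf, ← h1]
        constructor
        · intro hz
          exact ⟨z, hz, rfl⟩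
        · rintro ⟨z', hz', hzz⟩
          have h2 : z' = z := Subtype.ext hzz
          rw [← h2]
          exact hz'
      have h1 := pow_central_rank_three p hp2 S.isPGroup' hr (A.subgroupOf (S : Subgroup G)) hE'
        hE2 hEmax ⟨y, hyS⟩ ?_ ?_ ⟨s, hs⟩
      · exact congrArg Subtype.val h1
      · rintro ⟨a, haS⟩ ha
        apply Subtype.ext
        exact hP'comm y (Subgroup.mem_sup_left (Subgroup.mem_zpowers y)) a
          (Subgroup.mem_sup_right (Subgroup.mem_subgroupOf.mp ha))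
      · rw [Subgroup.mem_subgroupOf]
        exact hypA
  -- hence `S ≤ C_G(X) ≤ M` is abelian
  have hSC : (S : Subgroup G) ≤ Subgroup.centralizer (X : Set G) := by
    intro s hs
    rw [Subgroup.mem_centralizer_iff]
    intro x hx
    obtain ⟨j, hj⟩ := Subgroup.mem_zpowers_iff.mp (hXy x hx)
    have h1 : Commute (y ^ p) s := hcent s hs
    rw [← hj]
    exact (h1.zpow_left j).eq
  exact hS S (hab _ (hSC.trans hXM) S.isPGroup')

end Cfsg.Agent.Lib.Helper1.BG
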